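import Mathlib

set_option autoImplicit false
set_option linter.unusedSimpArgs false

namespace Cfsg.Agent.Lib.Helper22.OE

open Matrix

variable {F : Type*} [Field F]

theorem yt1a_solve [Fintype F] (h2 : (2 : F) ≠ 0) (α β γ : F) (hα : α ≠ 0) (hβ : β ≠ 0) :
    ∃ x y : F, α * x ^ 2 + β * y ^ 2 = γ := by
  have hchar : ringChar F ≠ 2 := by
    intro h
    haveI : CharP F 2 := ringChar.of_eq h
    exact h2 (CharTwo.two_eq_zero)
  have hodd := FiniteField.odd_card_of_char_ne_two hchar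
  obtain ⟨x, y, hxy⟩ := FiniteField.exists_root_sum_quadratic
    (f := Polynomial.C α * Polynomial.X ^ 2 - Polynomial.C γ) (g := Polynomial.C β * Polynomial.X ^ 2)
    (by
      rw [Polynomial.degree_sub_C (by rw [Polynomial.degree_C_mul_X_pow 2 hα]; norm_num),
        Polynomial.degree_C_mul_X_pow 2 hα]
      rfl)
    (by
      rw [Polynomial.degree_C_mul_X_pow 2 hβ]
      rfl)
    hodd
  refine ⟨x, y, ?_⟩
  simp at hxy
  linear_combination hxy

/-- YT1a -/
theorem diag_three [Fintype F] (h2 : (2 : F) ≠ 0) (G : Matrix (Fin 3) (Fin 3) F) (hs : Gᵀ = G)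
    (hu : IsUnit G.det) :
    ∃ (b : Fin 3 → (Fin 3 → F)) (d d' : F), d ≠ 0 ∧ d' ≠ 0 ∧
      (∀ i j, i ≠ j → b i ⬝ᵥ (G *ᵥ b j) = 0) ∧ b 0 ⬝ᵥ (G *ᵥ b 0) = d ∧
      b 1 ⬝ᵥ (G *ᵥ b 1) = d ∧ b 2 ⬝ᵥ (G *ᵥ b 2) = d' := by
  classical
  haveI : Invertible (2 : F) := invertibleOfNonzero h2
  set B : LinearMap.BilinForm F (Fin 3 → F) := Matrix.toBilin' G with hB
  have hBa : ∀ x y, x ⬝ᵥ (G *ᵥ y) = B x y := fun x y => (Matrix.toBilin'_apply' G x y).symm
  have hsy : ∀ x y, B x y = B y x := by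
    intro x y
    rw [← hBa, ← hBa, Matrix.dotProduct_mulVec, ← hs, Matrix.vecMul_transpose, hs, dotProduct_comm]
  have hsymm : LinearMap.IsSymm B := ⟨fun x y => by simpa using hsy x y⟩
  have hnd : B.Nondegenerate := Matrix.Nondegenerate.toBilin' (Matrix.nondegenerate_of_det_ne_zero hu.ne_zero)
  obtain ⟨v, hv⟩ := LinearMap.BilinForm.exists_orthogonal_basis hsymm
  have hfr : Module.finrank F (Fin 3 → F) = 3 := by simp
  have hne : ∀ i, B (v i) (v i) ≠ 0 := fun i => LinearMap.IsOrthoᵢ.not_isOrtho_basis_self_of_separatingLeft hv hnd.1 i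
  set i0 : Fin (Module.finrank F (Fin 3 → F)) := Fin.cast hfr.symm 0 with hi0
  set i1 : Fin (Module.finrank F (Fin 3 → F)) := Fin.cast hfr.symm 1 with hi1
  set i2 : Fin (Module.finrank F (Fin 3 → F)) := Fin.cast hfr.symm 2 with hi2
  have h01 : i0 ≠ i1 := by
    intro h
    have := congrArg Fin.val h
    simp [hi0, hi1] at this
  have h02 : i0 ≠ i2 := by
    intro h
    have := congrArg Fin.val h
    simp [hi0, hi2] at this
  have h12 : i1 ≠ i2 := by
    intro h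
    have := congrArg Fin.val h
    simp [hi1, hi2] at this
  have o01 : B (v i0) (v i1) = 0 := hv h01
  have o02 : B (v i0) (v i2) = 0 := hv h02
  have o12 : B (v i1) (v i2) = 0 := hv h12
  have o10 : B (v i1) (v i0) = 0 := hv h01.symm
  have o20 : B (v i2) (v i0) = 0 := hv h02.symm
  have o21 : B (v i2) (v i1) = 0 := hv h12.symm
  obtain ⟨x, y, hxy⟩ := yt1a_solve h2 (B (v i0) (v i0)) (B (v i1) (v i1)) (B (v i2) (v i2)) (hne i0) (hne i1)
  generalize hα : B (v i0) (v i0) = α at *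
  generalize hβ : B (v i1) (v i1) = β at *
  generalize hγ : B (v i2) (v i2) = γ at *
  have hα0 : α ≠ 0 := hα ▸ hne i0
  have hβ0 : β ≠ 0 := hβ ▸ hne i1
  have hγ0 : γ ≠ 0 := hγ ▸ hne i2
  refine ⟨![v i2, x • v i0 + y • v i1, (β * y) • v i0 - (α * x) • v i1], γ, α * β * γ, hγ0,
    mul_ne_zero (mul_ne_zero hα0 hβ0) hγ0, ?_, ?_, ?_, ?_⟩
  · intro i j hij
    rw [hBa]
    fin_cases i <;> fin_cases j <;>
      simp [o01, o02, o12, o10, o20, o21, hα, hβ, hγ] at hij ⊢ <;> ring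
  · rw [hBa]; simpa using hγ
  · rw [hBa]
    simp [o01, o02, o12, o10, o20, o21, hα, hβ, hγ]
    linear_combination hxy
  · rw [hBa]
    simp [o01, o02, o12, o10, o20, o21, hα, hβ, hγ]
    linear_combination (α * β) * hxy

end Cfsg.Agent.Lib.Helper22.OE
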