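import Cfsg.Agent.Lib.Helper57.OE.Base
import Cfsg.Agent.Lib.Helper57.OE.Defs2

set_option autoImplicit false
set_option linter.unusedSectionVars false

namespace Cfsg.Agent.Lib.Helper22.OE

open Cfsg Cfsg.Geo Matrix Cfsg.Agent.Lib.Helper13.Asch Cfsg.Agent.Lib.Helper90.Sp
open Cfsg.Agent.Lib.Helper57.OE
open scoped Kronecker MatrixGroups

variable {ι : Type} [Fintype ι] [DecidableEq ι] {F : Type*} [Field F] {Q : (ι → F) → F}

theorem f3_cases [Fintype F] (hq : Fintype.card F = 3) (c : F) : c = 0 ∨ c = 1 ∨ c = -1 := by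
  have h := FiniteField.pow_card c
  rw [hq] at h
  have : c * ((c - 1) * (c + 1)) = 0 := by linear_combination h
  rcases mul_eq_zero.1 this with h | h
  · left; exact h
  · rcases mul_eq_zero.1 h with h | h
    · right; left; linear_combination h
    · right; right; linear_combination h

theorem f3_three [Fintype F] (hq : Fintype.card F = 3) : (3 : F) = 0 := by
  have := Nat.cast_card_eq_zero F
  rw [hq] at this
  exact_mod_cast this

theorem f3_two_ne [Fintype F] (hq : Fintype.card F = 3) : (2 : F) ≠ 0 := by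
  intro h
  have : (1 : F) = 0 := by linear_combination f3_three hq - h
  exact one_ne_zero this

theorem Q_lin2 (hQ : IsNondegenerateQuadraticForm Q) (a b : ι → F) (x y : F) :
    Q (x • a + y • b) = x ^ 2 * Q a + y ^ 2 * Q b + x * y * QuadraticMap.polar Q a b := by
  rw [Q_add Q, hQ.smul, hQ.smul, hQ.polar_bilinear.smul_left, hQ.polar_bilinear.smul_right]
  ring

theorem Q_lin3 (hQ : IsNondegenerateQuadraticForm Q) (a b d : ι → F) (x y z : F) :
    Q (x • a + y • b + z • d) = x ^ 2 * Q a + y ^ 2 * Q b + z ^ 2 * Q d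
      + x * y * QuadraticMap.polar Q a b + x * z * QuadraticMap.polar Q a d
      + y * z * QuadraticMap.polar Q b d := by
  rw [Q_add Q, Q_lin2 hQ, hQ.smul, hQ.polar_bilinear.add_left, hQ.polar_bilinear.smul_left,
    hQ.polar_bilinear.smul_left, hQ.polar_bilinear.smul_right, hQ.polar_bilinear.smul_right]
  ring

theorem polar_lin2 (hQ : IsNondegenerateQuadraticForm Q) (a b : ι → F) (x y x' y' : F) :
    QuadraticMap.polar Q (x • a + y • b) (x' • a + y' • b)
      = 2 * x * x' * Q a + 2 * y * y' * Q b + (x * y' + y * x') * QuadraticMap.polar Q a b := by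
  have hb := hQ.polar_bilinear
  rw [hb.add_left, hb.add_right, hb.add_right, hb.smul_left, hb.smul_left, hb.smul_left, hb.smul_left,
    hb.smul_right, hb.smul_right, hb.smul_right, hb.smul_right, ← two_mul_Q hQ a, ← two_mul_Q hQ b,
    QuadraticMap.polar_comm Q b a]
  ring

theorem exists_orth_basis (h2 : (2 : F) ≠ 0) (hQ : IsNondegenerateQuadraticForm Q)
    (X : Submodule F (ι → F)) (hnd : IsNondegenerateOn (QuadraticMap.polar Q) X) {n : ℕ}
    (hdim : Module.finrank F X = n) :
    ∃ v : Module.Basis (Fin n) F X,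
      (∀ i j, i ≠ j → QuadraticMap.polar Q (v i : ι → F) (v j : ι → F) = 0) ∧
      ∀ i, Q (v i : ι → F) ≠ 0 := by
  classical
  haveI : Invertible (2 : F) := invertibleOfNonzero h2
  let B : LinearMap.BilinForm F X :=
    LinearMap.mk₂ F (fun x y : X => QuadraticMap.polar Q (x : ι → F) (y : ι → F))
      (fun x y z => hQ.polar_bilinear.add_left _ _ _)
      (fun c x y => hQ.polar_bilinear.smul_left c _ _)
      (fun x y z => hQ.polar_bilinear.add_right _ _ _)
      (fun c x y => hQ.polar_bilinear.smul_right c _ _)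
  have hB : ∀ x y : X, B x y = QuadraticMap.polar Q (x : ι → F) (y : ι → F) := fun _ _ => rfl
  have hsymm : LinearMap.IsSymm B := ⟨fun x y => by
    rw [hB, hB, RingHom.id_apply, QuadraticMap.polar_comm]⟩
  obtain ⟨v, hv⟩ := LinearMap.BilinForm.exists_orthogonal_basis hsymm
  have hsep : B.SeparatingLeft := by
    intro x hx
    by_contra hne
    obtain ⟨-, y, hy, hxy⟩ := hnd x x.2 (by simpa using hne)
    exact hxy (hx ⟨y, hy⟩)
  have hne := fun i => LinearMap.IsOrthoᵢ.not_isOrtho_basis_self_of_separatingLeft hv hsep i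
  refine ⟨v.reindex (finCongr hdim), ?_, ?_⟩
  · intro i j hij
    rw [Module.Basis.reindex_apply, Module.Basis.reindex_apply, ← hB]
    exact hv (fun h => hij ((finCongr hdim).symm.injective h))
  · intro i h0
    apply hne ((finCongr hdim).symm i)
    rw [Module.Basis.reindex_apply] at h0
    rw [hB, ← two_mul_Q hQ, h0, mul_zero]

end Cfsg.Agent.Lib.Helper22.OE
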