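import Cfsg.Agent.Lib.Helper22.OE.YBase

set_option autoImplicit false
set_option linter.unusedSectionVars false
set_option linter.unusedSimpArgs false

namespace Cfsg.Agent.Lib.Helper22.OE

open Cfsg Cfsg.Geo Matrix Cfsg.Agent.Lib.Helper13.Asch Cfsg.Agent.Lib.Helper90.Sp
open Cfsg.Agent.Lib.Helper57.OE
open scoped Kronecker MatrixGroups

variable {ι : Type} [Fintype ι] [DecidableEq ι] {F : Type*} [Field F] {Q : (ι → F) → F}

/-- all three values equal. -/
theorem yl3_final [Fintype F] (hq : Fintype.card F = 3) (hQ : IsNondegenerateQuadraticForm Q)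
    (X : Submodule F (ι → F)) (a b d : ι → F) (c : F) (hc : c ≠ 0) (haX : a ∈ X) (hbX : b ∈ X) (hdX : d ∈ X)
    (hA : Q a = c) (hB : Q b = c) (hD : Q d = c)
    (hab : QuadraticMap.polar Q a b = 0) (had : QuadraticMap.polar Q a d = 0)
    (hbd : QuadraticMap.polar Q b d = 0)
    (hspan : ∀ w ∈ X, ∃ x y z : F, w = x • a + y • b + z • d) :
    ∃ (c : F) (b : Fin 3 → (ι → F)), c ≠ 0 ∧ (∀ j, b j ∈ X ∧ Q (b j) = c) ∧
      (∀ j j', j ≠ j' → QuadraticMap.polar Q (b j) (b j') = 0) ∧
      ∀ v ∈ X, Q v = c → ∃ j, v = b j ∨ v = - b j := by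
  have h3 := f3_three hq
  have h2 := f3_two_ne hq
  have r0 : (0 : F) ≠ 1 := zero_ne_one
  have r2 : (2 : F) ≠ 1 := by
    intro h
    exact one_ne_zero (by linear_combination h : (1 : F) = 0)
  have r3 : (3 : F) ≠ 1 := by
    rw [h3]; exact zero_ne_one
  refine ⟨c, ![a, b, d], hc, ?_, ?_, ?_⟩
  · intro j
    fin_cases j
    · exact ⟨haX, hA⟩
    · exact ⟨hbX, hB⟩
    · exact ⟨hdX, hD⟩
  · intro j j' hj
    fin_cases j <;> fin_cases j' <;> simp at hj ⊢ <;>
      first
      | exact hab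
      | exact had
      | exact hbd
      | (rw [QuadraticMap.polar_comm]; exact hab)
      | (rw [QuadraticMap.polar_comm]; exact had)
      | (rw [QuadraticMap.polar_comm]; exact hbd)
  · intro w hw hQw
    obtain ⟨x, y, z, rfl⟩ := hspan w hw
    rw [Q_lin3 hQ, hA, hB, hD, hab, had, hbd] at hQw
    have hs : x ^ 2 + y ^ 2 + z ^ 2 = 1 := by
      have : c * (x ^ 2 + y ^ 2 + z ^ 2) = c * 1 := by linear_combination hQw
      exact mul_left_cancel₀ hc this
    clear hQw
    rcases f3_cases hq x with rfl | rfl | rfl <;> rcases f3_cases hq y with rfl | rfl | rfl <;>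
      rcases f3_cases hq z with rfl | rfl | rfl <;>
      first
      | exact absurd (by linear_combination hs) r0
      | exact absurd (by linear_combination hs) r2
      | exact absurd (by linear_combination hs) r3
      | (refine ⟨0, Or.inl ?_⟩; simp; done)
      | (refine ⟨0, Or.inr ?_⟩; simp; done)
      | (refine ⟨1, Or.inl ?_⟩; simp; done)
      | (refine ⟨1, Or.inr ?_⟩; simp; done)
      | (refine ⟨2, Or.inl ?_⟩; simp; done)
      | (refine ⟨2, Or.inr ?_⟩; simp; done)

/-- two equal values, the third is the opposite. -/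
theorem yl3_switch [Fintype F] (hq : Fintype.card F = 3) (hQ : IsNondegenerateQuadraticForm Q)
    (X : Submodule F (ι → F)) (a b d : ι → F) (c : F) (hc : c ≠ 0) (haX : a ∈ X) (hbX : b ∈ X) (hdX : d ∈ X)
    (hA : Q a = -c) (hB : Q b = -c) (hD : Q d = c)
    (hab : QuadraticMap.polar Q a b = 0) (had : QuadraticMap.polar Q a d = 0)
    (hbd : QuadraticMap.polar Q b d = 0)
    (hspan : ∀ w ∈ X, ∃ x y z : F, w = x • a + y • b + z • d) :
    ∃ (c : F) (b : Fin 3 → (ι → F)), c ≠ 0 ∧ (∀ j, b j ∈ X ∧ Q (b j) = c) ∧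
      (∀ j j', j ≠ j' → QuadraticMap.polar Q (b j) (b j') = 0) ∧
      ∀ v ∈ X, Q v = c → ∃ j, v = b j ∨ v = - b j := by
  have h3 := f3_three hq
  have h2 := f3_two_ne hq
  have e1 : a + b = (1 : F) • a + (1 : F) • b := by simp
  have e2 : a - b = (1 : F) • a + (-1 : F) • b := by simp [sub_eq_add_neg]
  have hbl := hQ.polar_bilinear
  refine yl3_final hq hQ X (a + b) (a - b) d c hc (X.add_mem haX hbX) (X.sub_mem haX hbX) hdX ?_ ?_ hD
    ?_ ?_ ?_ ?_
  · rw [e1, Q_lin2 hQ, hA, hB, hab]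
    linear_combination (-c) * h3
  · rw [e2, Q_lin2 hQ, hA, hB, hab]
    linear_combination (-c) * h3
  · rw [e1, e2, polar_lin2 hQ, hA, hB, hab]
    ring
  · rw [hbl.add_left, had, hbd, add_zero]
  · rw [e2, hbl.add_left, hbl.smul_left, hbl.smul_left, had, hbd]
    ring
  · intro w hw
    obtain ⟨x, y, z, rfl⟩ := hspan w hw
    refine ⟨(x + y) / 2, (x - y) / 2, z, ?_⟩
    have hx : (x + y) / 2 + (x - y) / 2 = x := by field_simp; ring
    have hy : (x + y) / 2 - (x - y) / 2 = y := by field_simp; ring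
    calc x • a + y • b + z • d
        = ((x + y) / 2 + (x - y) / 2) • a + ((x + y) / 2 - (x - y) / 2) • b + z • d := by rw [hx, hy]
      _ = _ := by
        simp only [smul_add, smul_sub, add_smul, sub_smul]
        abel

/-- YL3 -/
theorem three_space_three_local [Fintype F] (hq : Fintype.card F = 3)
    (hQ : IsNondegenerateQuadraticForm Q) (X : Submodule F (ι → F))
    (hnd : IsNondegenerateOn (QuadraticMap.polar Q) X) (hdim : Module.finrank F X = 3) :
    ∃ (c : F) (b : Fin 3 → (ι → F)), c ≠ 0 ∧ (∀ j, b j ∈ X ∧ Q (b j) = c) ∧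
      (∀ j j', j ≠ j' → QuadraticMap.polar Q (b j) (b j') = 0) ∧
      ∀ v ∈ X, Q v = c → ∃ j, v = b j ∨ v = - b j := by
  have h2 := f3_two_ne hq
  obtain ⟨v, horth, hne⟩ := exists_orth_basis h2 hQ X hnd hdim
  obtain ⟨a, ha⟩ : ∃ a : ι → F, a = v 0 := ⟨_, rfl⟩
  obtain ⟨b, hb⟩ : ∃ b : ι → F, b = v 1 := ⟨_, rfl⟩
  obtain ⟨d, hd⟩ : ∃ d : ι → F, d = v 2 := ⟨_, rfl⟩
  have haX : a ∈ X := ha ▸ (v 0).2
  have hbX : b ∈ X := hb ▸ (v 1).2
  have hdX : d ∈ X := hd ▸ (v 2).2
  have hab : QuadraticMap.polar Q a b = 0 := by rw [ha, hb]; exact horth 0 1 (by decide)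
  have had : QuadraticMap.polar Q a d = 0 := by rw [ha, hd]; exact horth 0 2 (by decide)
  have hbd : QuadraticMap.polar Q b d = 0 := by rw [hb, hd]; exact horth 1 2 (by decide)
  have hba : QuadraticMap.polar Q b a = 0 := by rw [QuadraticMap.polar_comm]; exact hab
  have hda : QuadraticMap.polar Q d a = 0 := by rw [QuadraticMap.polar_comm]; exact had
  have hdb : QuadraticMap.polar Q d b = 0 := by rw [QuadraticMap.polar_comm]; exact hbd
  have hQa : Q a ≠ 0 := ha ▸ hne 0
  have hQb : Q b ≠ 0 := hb ▸ hne 1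
  have hQd : Q d ≠ 0 := hd ▸ hne 2
  have hspan : ∀ w ∈ X, ∃ x y z : F, w = x • a + y • b + z • d := by
    intro w hw
    have h := v.sum_repr ⟨w, hw⟩
    rw [Fin.sum_univ_three] at h
    refine ⟨v.repr ⟨w, hw⟩ 0, v.repr ⟨w, hw⟩ 1, v.repr ⟨w, hw⟩ 2, ?_⟩
    have h' := congrArg Subtype.val h
    rw [ha, hb, hd]
    simpa using h'.symm
  have hspan2 : ∀ w ∈ X, ∃ x y z : F, w = x • a + y • d + z • b := by
    intro w hw
    obtain ⟨x, y, z, rfl⟩ := hspan w hw
    exact ⟨x, z, y, by abel⟩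
  have hspan3 : ∀ w ∈ X, ∃ x y z : F, w = x • b + y • d + z • a := by
    intro w hw
    obtain ⟨x, y, z, rfl⟩ := hspan w hw
    exact ⟨y, z, x, by abel⟩
  have n1 : (1 : F) ≠ 0 := one_ne_zero
  have nm : (-1 : F) ≠ 0 := neg_ne_zero.2 one_ne_zero
  rcases f3_cases hq (Q a) with hA | hA | hA
  · exact absurd hA hQa
  · rcases f3_cases hq (Q b) with hB | hB | hB
    · exact absurd hB hQb
    · rcases f3_cases hq (Q d) with hD | hD | hD
      · exact absurd hD hQd
      · exact yl3_final hq hQ X a b d 1 n1 haX hbX hdX hA hB hD hab had hbd hspan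
      · exact yl3_switch hq hQ X a b d (-1) nm haX hbX hdX (by rw [hA, neg_neg]) (by rw [hB, neg_neg]) hD
          hab had hbd hspan
    · rcases f3_cases hq (Q d) with hD | hD | hD
      · exact absurd hD hQd
      · exact yl3_switch hq hQ X a d b (-1) nm haX hdX hbX (by rw [hA, neg_neg]) (by rw [hD, neg_neg]) hB
          had hab hdb hspan2
      · exact yl3_switch hq hQ X b d a 1 n1 hbX hdX haX hB hD hA hbd hba hda hspan3
  · rcases f3_cases hq (Q b) with hB | hB | hB
    · exact absurd hB hQb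
    · rcases f3_cases hq (Q d) with hD | hD | hD
      · exact absurd hD hQd
      · exact yl3_switch hq hQ X b d a (-1) nm hbX hdX haX (by rw [hB, neg_neg]) (by rw [hD, neg_neg]) hA
          hbd hba hda hspan3
      · exact yl3_switch hq hQ X a d b 1 n1 haX hdX hbX hA hD hB had hab hdb hspan2
    · rcases f3_cases hq (Q d) with hD | hD | hD
      · exact absurd hD hQd
      · exact yl3_switch hq hQ X a b d 1 n1 haX hbX hdX hA hB hD hab had hbd hspan
      · exact yl3_final hq hQ X a b d (-1) nm haX hbX hdX hA hB hD hab had hbd hspan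

end Cfsg.Agent.Lib.Helper22.OE
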