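import Cfsg.Agent.Lib.Helper22.OE.YBase

set_option autoImplicit false
set_option linter.unusedSectionVars false
set_option linter.unusedSimpArgs false

namespace Cfsg.Agent.Lib.Helper22.OE

open Cfsg Cfsg.Geo Matrix Cfsg.Agent.Lib.Helper13.Asch Cfsg.Agent.Lib.Helper90.Sp
open Cfsg.Agent.Lib.Helper57.OE
open scoped Kronecker MatrixGroups

variable {ι : Type} [Fintype ι] [DecidableEq ι] {F : Type*} [Field F] {Q : (ι → F) → F}

/-- YM3 -/
theorem plane_minus_three_local [Fintype F] (hq : Fintype.card F = 3)
    (hQ : IsNondegenerateQuadraticForm Q) (X : Submodule F (ι → F))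
    (hnd : IsNondegenerateOn (QuadraticMap.polar Q) X) (hdim : Module.finrank F X = 2)
    (hminus : ¬ IsPlusTypeOn Q X) :
    ∃ b : Fin 2 → (ι → F), (∀ j, b j ∈ X ∧ Q (b j) = 1) ∧
      (∀ j j', j ≠ j' → QuadraticMap.polar Q (b j) (b j') = 0) ∧
      ∀ v ∈ X, Q v = 1 → ∃ j, v = b j ∨ v = - b j := by
  have h3 := f3_three hq
  have h2 := f3_two_ne hq
  have r0 : (0 : F) ≠ 1 := zero_ne_one
  have r2 : (2 : F) ≠ 1 := by
    intro h
    exact one_ne_zero (by linear_combination h : (1 : F) = 0)
  have rm : (-1 : F) ≠ 1 := by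
    intro h
    exact h2 (by linear_combination -h)
  obtain ⟨v, horth, hne⟩ := exists_orth_basis h2 hQ X hnd hdim
  obtain ⟨a, ha⟩ : ∃ a : ι → F, a = v 0 := ⟨_, rfl⟩
  obtain ⟨b, hb⟩ : ∃ b : ι → F, b = v 1 := ⟨_, rfl⟩
  have haX : a ∈ X := ha ▸ (v 0).2
  have hbX : b ∈ X := hb ▸ (v 1).2
  have hab : QuadraticMap.polar Q a b = 0 := by rw [ha, hb]; exact horth 0 1 (by decide)
  have hQa : Q a ≠ 0 := ha ▸ hne 0
  have hQb : Q b ≠ 0 := hb ▸ hne 1
  have hspan : ∀ w ∈ X, ∃ x y : F, w = x • a + y • b := by
    intro w hw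
    have h := v.sum_repr ⟨w, hw⟩
    rw [Fin.sum_univ_two] at h
    refine ⟨v.repr ⟨w, hw⟩ 0, v.repr ⟨w, hw⟩ 1, ?_⟩
    have h' := congrArg Subtype.val h
    rw [ha, hb]
    simpa using h'.symm
  have haniso : ∀ w ∈ X, w ≠ 0 → Q w ≠ 0 := by
    intro w hw hw0 hQw
    apply hminus
    refine ⟨Submodule.span F {w}, (Submodule.span_singleton_le_iff_mem _ _).2 hw, ?_, ?_⟩
    · intro u hu
      obtain ⟨c, rfl⟩ := Submodule.mem_span_singleton.1 hu
      rw [hQ.smul, hQw, mul_zero]
    · rw [finrank_span_singleton hw0, hdim]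
  have hmixed : Q a + Q b = 0 → False := by
    intro h
    have h1 : Q (a + b) = 0 := by rw [Q_add Q, hab, add_zero, h]
    refine haniso (a + b) (X.add_mem haX hbX) ?_ h1
    intro h0
    have hb' : b = (-1 : F) • a := by
      rw [neg_smul, one_smul]
      exact (neg_eq_of_add_eq_zero_right h0).symm
    have h4 : Q b = Q a := by rw [hb', hQ.smul]; ring
    apply hQa
    have : 2 * Q a = 0 := by linear_combination h - h4
    exact (mul_eq_zero.1 this).resolve_left h2
  rcases f3_cases hq (Q a) with hA | hA | hA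
  · exact absurd hA hQa
  · rcases f3_cases hq (Q b) with hB | hB | hB
    · exact absurd hB hQb
    · -- (1, 1)
      refine ⟨![a, b], ?_, ?_, ?_⟩
      · intro j
        fin_cases j
        · exact ⟨haX, hA⟩
        · exact ⟨hbX, hB⟩
      · intro j j' hj
        fin_cases j <;> fin_cases j' <;> simp at hj ⊢
        · exact hab
        · rw [QuadraticMap.polar_comm]; exact hab
      · intro w hw hQw
        obtain ⟨x, y, rfl⟩ := hspan w hw
        rw [Q_lin2 hQ, hA, hB, hab] at hQw
        rcases f3_cases hq x with rfl | rfl | rfl <;> rcases f3_cases hq y with rfl | rfl | rfl <;>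
          first
          | exact absurd (by linear_combination hQw) r0
          | exact absurd (by linear_combination hQw) r2
          | (refine ⟨0, Or.inl ?_⟩; simp; done)
          | (refine ⟨0, Or.inr ?_⟩; simp; done)
          | (refine ⟨1, Or.inl ?_⟩; simp; done)
          | (refine ⟨1, Or.inr ?_⟩; simp; done)
    · exact (hmixed (by rw [hA, hB]; ring)).elim
  · rcases f3_cases hq (Q b) with hB | hB | hB
    · exact absurd hB hQb
    · exact (hmixed (by rw [hA, hB]; ring)).elim
    · -- (-1, -1)
      have e1 : a + b = (1 : F) • a + (1 : F) • b := by simp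
      have e2 : a - b = (1 : F) • a + (-1 : F) • b := by simp [sub_eq_add_neg]
      refine ⟨![a + b, a - b], ?_, ?_, ?_⟩
      · intro j
        fin_cases j
        · refine ⟨X.add_mem haX hbX, ?_⟩
          show Q (a + b) = 1
          rw [e1, Q_lin2 hQ, hA, hB, hab]
          linear_combination -h3
        · refine ⟨X.sub_mem haX hbX, ?_⟩
          show Q (a - b) = 1
          rw [e2, Q_lin2 hQ, hA, hB, hab]
          linear_combination -h3
      · have key : QuadraticMap.polar Q (a + b) (a - b) = 0 := by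
          rw [e1, e2, polar_lin2 hQ, hA, hB, hab]
          ring
        intro j j' hj
        fin_cases j <;> fin_cases j' <;> simp at hj ⊢
        · exact key
        · rw [QuadraticMap.polar_comm]; exact key
      · intro w hw hQw
        obtain ⟨x, y, rfl⟩ := hspan w hw
        rw [Q_lin2 hQ, hA, hB, hab] at hQw
        rcases f3_cases hq x with rfl | rfl | rfl <;> rcases f3_cases hq y with rfl | rfl | rfl <;>
          first
          | exact absurd (by linear_combination hQw) r0
          | exact absurd (by linear_combination hQw) rm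
          | (refine ⟨0, Or.inl ?_⟩; simp; done)
          | (refine ⟨0, Or.inr ?_⟩; simp [add_comm]; done)
          | (refine ⟨1, Or.inl ?_⟩; simp [sub_eq_add_neg]; done)
          | (refine ⟨1, Or.inr ?_⟩; simp [sub_eq_add_neg, add_comm]; done)

end Cfsg.Agent.Lib.Helper22.OE
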